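import Mathlib
import Cfsg.Agent.Lib.Kazarin.Basic
import Cfsg.Agent.Lib.CharGal.Basic
import Cfsg.Agent.Lib.Transfer.NormalComplement

/-! Vanishing classes and the principal block. -/

set_option autoImplicit false

namespace CfsgLib.VanCl

open Subgroup Cfsg CfsgLib.Char CfsgLib.Block
open scoped ComplexConjugate commutatorElement

variable {G : Type*} [Group G] [Finite G] {p : ℕ}

theorem exists_zero {χ : G → ℂ} (hχ : IsIrrCharacter G χ) (h : χ 1 ≠ 1) : ∃ g, χ g = 0 := by
  obtain ⟨n, ρ, hρ, rfl⟩ := hχ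
  refine CharGal.exists_character_eq_zero ρ (lt_of_le_of_ne (finrank_pos_of_isIrreducible ρ) fun e => h ?_)
  rw [Representation.char_one, ← e, Nat.cast_one]

/-- if the principal block consists of linear characters, `G'` is a `p'`-group -/
theorem not_dvd_commutator (hp : p.Prime) {M : Ideal AlgInt} (hM : IsPModular p M)
    (h : ∀ χ ∈ principalBlock M G, (χ : G → ℂ) 1 = 1) : ¬ p ∣ Nat.card (commutator G) := by
  classical
  intro hdvd
  have := Fact.mk hp
  obtain ⟨y, hy⟩ := exists_prime_orderOf_dvd_card' p hdvd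
  have h0 := weak_block_orth hM (isPBlock_principalBlock (M := M) (G := G)) (x := 1) (y := y)
    (by rw [orderOf_one, Nat.dvd_one]; exact hp.ne_one) (by rw [Subgroup.orderOf_coe, hy])
  have hfin : ∑ᶠ χ ∈ principalBlock M G, (χ : G → ℂ) 1 * conj ((χ : G → ℂ) y) =
      ∑ χ ∈ Finset.univ.filter (· ∈ principalBlock M G),
        (χ : G → ℂ) 1 * conj ((χ : G → ℂ) y) := by
    rw [← finsum_mem_coe_finset]; simp
  rw [hfin, Finset.sum_congr rfl (g := fun _ => 1) fun χ hχ => ?_, Finset.sum_const, nsmul_eq_mul, mul_one,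
    Nat.cast_eq_zero, Finset.card_eq_zero] at h0
  · exact Finset.ne_empty_of_mem (Finset.mem_filter.2 ⟨Finset.mem_univ _, irrOne_mem_principalBlock hM⟩) h0
  · have h1 := h χ (Finset.mem_filter.1 hχ).2
    obtain ⟨f, hf⟩ := exists_unitsHom_of_one_eq_one (isCharacter_of_isIrr χ.2) h1
    rw [h1, hf]
    simp only [show f y = 1 from Abelianization.commutator_subset_ker f y.2, Units.val_one, map_one, mul_one]

theorem of_not_dvd_commutator [hp : Fact p.Prime] (h : ¬ p ∣ Nat.card (commutator G)) :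
    HasNormalPComplement p G ∧ ∀ P : Sylow p G, IsMulCommutative (P : Subgroup G) := by
  have hc := ((Nat.Prime.coprime_iff_not_dvd hp.out).2 h).symm
  refine ⟨Transfer.hasNormalPComplement_of_ker_coprime (Abelianization.of : G →* Abelianization G)
    (by rwa [Abelianization.ker_of]) Transfer.hasNormalPComplement_of_isNilpotent, fun P => ⟨⟨fun a b => ?_⟩⟩⟩
  obtain ⟨k, hk⟩ := P.isPGroup' ⁅a, b⁆
  have h1 : orderOf ((⁅a, b⁆ : (P : Subgroup G)) : G) ∣ Nat.card (commutator G) :=
    (commutator G).orderOf_dvd_natCard (commutator_mem_commutator (mem_top (a : G)) (mem_top (b : G)))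
  rw [Subgroup.orderOf_coe] at h1
  exact commutatorElement_eq_one_iff_mul_comm.1 (orderOf_eq_one_iff.1
    (Nat.Coprime.eq_one_of_dvd ((hc.pow_right k).coprime_dvd_left h1) (orderOf_dvd_of_pow_eq_one hk)))

end CfsgLib.VanCl
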